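import Cfsg.Agent.CosetEnum.He.Order

/-!
Elements of the Held group seen through the images of four base points.
-/

set_option autoImplicit false
set_option maxRecDepth 100000

namespace CfsgLib.HeMult

open CfsgLib.CosetEnum CfsgLib.CosetEnum.He

theorem base_stab_trivial {a : Equiv.Perm (Fin Tab.perm.n)}
    (ha : a ∈ pointStab pi.range [P3, P2, P1, P0]) : a = 1 := by
  have h := card_range_ge
  rw [card_range_eq] at h
  have hpos : 0 < Nat.card (pointStab pi.range [P3, P2, P1, P0]) := Nat.card_pos
  have h1 : Nat.card (pointStab pi.range [P3, P2, P1, P0]) = 1 := le_antisymm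
    (Nat.le_of_mul_le_mul_left (h.trans (Nat.mul_one _).ge) (by norm_num)) hpos
  rw [Subgroup.eq_bot_of_card_eq _ h1] at ha
  exact Subgroup.mem_bot.1 ha

/-- images of the base points under the inverse -/
noncomputable def baseImg (x : Cfsg.Spor.He) : List ℕ :=
  [P0, P1, P2, P3].map fun p => (((pi x)⁻¹ p : Fin Tab.perm.n) : ℕ)

theorem baseImg_injective : Function.Injective baseImg := by
  intro x y h
  simp only [baseImg, List.map_cons, List.map_nil, List.cons.injEq, and_true] at h
  obtain ⟨h0, h1, h2, h3⟩ := h
  refine pi_injective ?_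
  have : pi y * (pi x)⁻¹ = 1 := by
    refine base_stab_trivial (mem_pointStab.2 ⟨⟨y * x⁻¹, by rw [map_mul, map_inv]⟩, fun p hp => ?_⟩)
    simp only [List.mem_cons, List.not_mem_nil, or_false] at hp
    rw [Equiv.Perm.mul_apply]
    rcases hp with rfl | rfl | rfl | rfl <;>
      first
        | rw [Fin.ext h0] | rw [Fin.ext h1] | rw [Fin.ext h2] | rw [Fin.ext h3]
    all_goals exact Equiv.apply_symm_apply _ _
  exact (mul_inv_eq_one.1 this).symm

/-- the images of the base points themselves -/
def base : List ℕ := [0, 1, 180, 1380]

theorem baseImg_one : baseImg 1 = base := by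
  simp only [baseImg, map_one, inv_one]
  rfl

/-- apply a word to images -/
noncomputable def step (w : List ℕ) (l : List ℕ) : List ℕ :=
  l.map (runT Tab.perm.T Tab.perm.L w)

theorem baseImg_mul_gword (x : Cfsg.Spor.He) {w : List ℕ} (hw : ∀ y ∈ w, y < 7) :
    baseImg (x * gword g7 w) = step w (baseImg x) := by
  simp only [baseImg, step, List.map_map]
  refine List.map_congr_left fun p _ => ?_
  rw [map_mul, mul_inv_rev, pi_gword w hw, Equiv.Perm.mul_apply]
  exact perm_ok.gword_inv_apply w hw _

theorem baseImg_gword {w : List ℕ} (hw : ∀ y ∈ w, y < 7) :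
    baseImg (gword g7 w) = step w base := by
  rw [← one_mul (gword g7 w), baseImg_mul_gword 1 hw, baseImg_one]

/-- letters are generators -/
def okWord (w : List ℕ) : Bool := w.all fun x => x.blt 7

theorem of_okWord {w : List ℕ} (h : okWord w = true) : ∀ y ∈ w, y < 7 := by
  intro y hy
  have := List.all_eq_true.1 h y hy
  simpa [Nat.blt, Nat.ble_eq] using this

theorem gword_eq_of_step {v w : List ℕ}
    (h : (okWord v && okWord w && (step v base == step w base)) = true) :
    gword g7 v = gword g7 w := by
  simp only [Bool.and_eq_true, beq_iff_eq] at h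
  exact baseImg_injective (by
    rw [baseImg_gword (of_okWord h.1.1), baseImg_gword (of_okWord h.1.2), h.2])

theorem gword_append' (v w : List ℕ) : gword g7 (v ++ w) = gword g7 v * gword g7 w := by
  simp [gword, List.prod_append]

theorem gword_reverse (w : List ℕ) : gword g7 w.reverse = (gword g7 w)⁻¹ := by
  induction w with
  | nil => simp [gword_nil]
  | cons x w ih =>
    rw [List.reverse_cons, gword_append', ih, gword_cons, gword_cons, gword_nil, mul_one,
      mul_inv_rev, ← g7_inv]

theorem gword_replicate (w : List ℕ) : ∀ n : ℕ,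
    gword g7 (List.replicate n w).flatten = gword g7 w ^ n
  | 0 => by simp [gword_nil]
  | n + 1 => by
    rw [List.replicate_succ, List.flatten_cons, gword_append', gword_replicate w n, pow_succ']

end CfsgLib.HeMult
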