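import Cfsg.Agent.HeMult.Span
import Cfsg.Agent.HeMult.Data
import Cfsg.Agent.Schur.ExtraspecialScale

/-!
The odd parts of the Schur multiplier of the Held group.
-/

set_option autoImplicit false
set_option maxRecDepth 100000
set_option maxHeartbeats 4000000

namespace CfsgLib.HeMult

open CfsgLib.CosetEnum CfsgLib.CosetEnum.He
open scoped commutatorElement

/-- word of a conjugate -/
def conjW (g a : List ℕ) : List ℕ := g ++ a ++ g.reverse

/-- word of a power -/
def powW (a : List ℕ) (n : ℕ) : List ℕ := (List.replicate n a).flatten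

/-- word of a commutator -/
def commW (a b : List ℕ) : List ℕ := a ++ b ++ a.reverse ++ b.reverse

theorem gword_conjW (g a : List ℕ) :
    gword g7 (conjW g a) = gword g7 g * gword g7 a * (gword g7 g)⁻¹ := by
  simp only [conjW, gword_append', gword_reverse]

theorem gword_commW (a b : List ℕ) : gword g7 (commW a b) = ⁅gword g7 a, gword g7 b⁆ := by
  simp only [commW, gword_append', gword_reverse, commutatorElement_def]

theorem gword_powW (a : List ℕ) (n : ℕ) : gword g7 (powW a n) = gword g7 a ^ n :=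
  gword_replicate a n

/-- equality of two words on the base -/
noncomputable def sameW (v w : List ℕ) : Bool := okWord v && okWord w && (step v base == step w base)

/-- conditions for an elementary group of order `p ^ 2` -/
noncomputable def checkSwap (p : ℕ) (a b g : List ℕ) : Bool :=
  sameW (powW a p) [] && sameW (a ++ b) (b ++ a) && sameW (conjW g a) b && sameW (conjW g b) a &&
    closedUnder (powImgs p [a, b]) [a, b] && [a, b].all okWord

/-- conditions for an extraspecial group of order `p ^ 3` -/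
noncomputable def checkScale (p r s t : ℕ) (a b g : List ℕ) : Bool :=
  sameW (powW a p) [] && sameW (powW b p) [] && sameW (powW (commW a b) p) [] &&
    sameW (commW a b ++ a) (a ++ commW a b) && sameW (commW a b ++ b) (b ++ commW a b) &&
    !(step (commW a b) base == base) && okWord (commW a b) &&
    sameW (conjW g a) (powW a r) && sameW (conjW g b) (powW b s) &&
    sameW (conjW g (commW a b)) (powW (commW a b) t) &&
    closedUnder (powImgs p [a, b, commW a b]) [a, b] && [a, b].all okWord

theorem not_dvd_index {p m : ℕ} (H : Subgroup Cfsg.Spor.He) {c : ℕ} (hc : Nat.card H = c)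
    (hm : c * m = 4030387200) (hcp : 0 < c) (hp : ¬ p ∣ m) : ¬ p ∣ H.index := by
  have h := H.card_mul_index
  rw [hc, card_he, ← hm] at h
  rwa [Nat.eq_of_mul_eq_mul_left hcp h]

theorem not_dvd_swap {p : ℕ} [Fact p.Prime] (hp : p ≠ 2) (a b g : List ℕ) (m : ℕ)
    (hchk : checkSwap p a b g = true) (hn : (pack (powImgs p [a, b])).Nodup)
    (hm : (powImgs p [a, b]).length * m = 4030387200) (hpm : ¬ p ∣ m)
    {Γ : Type} [Group Γ] [Finite Γ] {σ : Γ →* Cfsg.Spor.He} (hσ : Cfsg.IsStemExtension σ) :
    ¬ p ∣ Nat.card σ.ker := by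
  simp only [checkSwap, Bool.and_eq_true] at hchk
  obtain ⟨⟨⟨⟨⟨h1, h2⟩, h3⟩, h4⟩, hcl⟩, hs⟩ := hchk
  have e1 := gword_eq_of_step h1
  have e2 := gword_eq_of_step h2
  have e3 := gword_eq_of_step h3
  have e4 := gword_eq_of_step h4
  rw [gword_powW, gword_nil] at e1
  rw [gword_append', gword_append'] at e2
  rw [gword_conjW] at e3 e4
  have hcard := card_eq (powImgs p [a, b]) [a, b] hs hcl hn
    (powImgs_mem p _ hs fun w hw => Subgroup.subset_closure ⟨w, hw, rfl⟩)
  refine Schur.OddSwap.not_dvd_of_swap hσ hp _ (not_dvd_index _ hcard hm ?_ hpm) ?_ e1 e2 e3 e4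
  · rcases Nat.eq_zero_or_pos (powImgs p [a, b]).length with h0 | h0
    · rw [h0, zero_mul] at hm; omega
    · exact h0
  · refine Subgroup.closure_mono ?_
    rintro _ ⟨w, hw, rfl⟩
    simp only [List.mem_cons, List.not_mem_nil, or_false] at hw
    rcases hw with rfl | rfl <;> simp

theorem not_dvd_scale {p : ℕ} [Fact p.Prime] (r s t : ℕ) (a b g : List ℕ) (m : ℕ)
    (hchk : checkScale p r s t a b g = true)
    (hn : (pack (powImgs p [a, b, commW a b])).Nodup)
    (hm : (powImgs p [a, b, commW a b]).length * m = 4030387200) (hpm : ¬ p ∣ m)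
    (hr : t * r % p ≠ 1) (hs' : t * s % p ≠ 1)
    {Γ : Type} [Group Γ] [Finite Γ] {σ : Γ →* Cfsg.Spor.He} (hσ : Cfsg.IsStemExtension σ) :
    ¬ p ∣ Nat.card σ.ker := by
  simp only [checkScale, Bool.and_eq_true, Bool.not_eq_true'] at hchk
  obtain ⟨⟨⟨⟨⟨⟨⟨⟨⟨⟨⟨h1, h2⟩, h3⟩, h4⟩, h5⟩, h6⟩, h7⟩, h8⟩, h9⟩, h10⟩, hcl⟩, hs⟩ := hchk
  have e1 := gword_eq_of_step h1
  have e2 := gword_eq_of_step h2
  have e3 := gword_eq_of_step h3
  have e4 := gword_eq_of_step h4
  have e5 := gword_eq_of_step h5
  have e8 := gword_eq_of_step h8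
  have e9 := gword_eq_of_step h9
  have e10 := gword_eq_of_step h10
  simp only [gword_powW, gword_nil, gword_commW] at e1 e2 e3
  simp only [gword_append', gword_commW] at e4 e5
  simp only [gword_conjW, gword_powW, gword_commW] at e8 e9 e10
  have hne : ⁅gword g7 a, gword g7 b⁆ ≠ 1 := by
    intro he
    have h := baseImg_gword (of_okWord h7)
    rw [gword_commW, he, baseImg_one] at h
    rw [← h] at h6
    simp at h6
  have hmem : ∀ w ∈ [a, b, commW a b], gword g7 w ∈ Subgroup.closure (wordSet [a, b]) := by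
    have ha : gword g7 a ∈ Subgroup.closure (wordSet [a, b]) :=
      Subgroup.subset_closure ⟨a, by simp, rfl⟩
    have hb : gword g7 b ∈ Subgroup.closure (wordSet [a, b]) :=
      Subgroup.subset_closure ⟨b, by simp, rfl⟩
    intro w hw
    simp only [List.mem_cons, List.not_mem_nil, or_false] at hw
    rcases hw with rfl | rfl | rfl
    · exact ha
    · exact hb
    · rw [gword_commW, commutatorElement_def]
      exact mul_mem (mul_mem (mul_mem ha hb) (inv_mem ha)) (inv_mem hb)
  have hs3 : [a, b, commW a b].all okWord = true := by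
    simp only [List.all_cons, List.all_nil, Bool.and_true, Bool.and_eq_true] at hs ⊢
    exact ⟨hs.1, hs.2, h7⟩
  have hcard := card_eq (powImgs p [a, b, commW a b]) [a, b] hs hcl hn
    (powImgs_mem p _ hs3 hmem)
  refine Schur.ExtraspecialScale.not_dvd_of_scale hσ _ (not_dvd_index _ hcard hm ?_ hpm) ?_
    e1 e2 e3 e4 e5 hne e8 e9 e10 hr hs'
  · rcases Nat.eq_zero_or_pos (powImgs p [a, b, commW a b]).length with h0 | h0
    · rw [h0, zero_mul] at hm; omega
    · exact h0
  · refine Subgroup.closure_mono ?_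
    rintro _ ⟨w, hw, rfl⟩
    simp only [List.mem_cons, List.not_mem_nil, or_false] at hw
    rcases hw with rfl | rfl <;> simp

/-- entries of a list of three words -/
def nth (L : List (List ℕ)) (i : ℕ) : List ℕ := L.getD i []

theorem not_three_dvd {Γ : Type} [Group Γ] [Finite Γ] {σ : Γ →* Cfsg.Spor.He}
    (hσ : Cfsg.IsStemExtension σ) : ¬ 3 ∣ Nat.card σ.ker :=
  haveI : Fact (Nat.Prime 3) := ⟨Nat.prime_three⟩
  not_dvd_scale 2 2 1 (nth threeWords 0) (nth threeWords 1) (nth threeWords 2) 149273600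
    (by decide +kernel) (by decide +kernel) (by decide +kernel) (by norm_num) (by norm_num)
    (by norm_num) hσ

theorem not_five_dvd {Γ : Type} [Group Γ] [Finite Γ] {σ : Γ →* Cfsg.Spor.He}
    (hσ : Cfsg.IsStemExtension σ) : ¬ 5 ∣ Nat.card σ.ker :=
  haveI : Fact (Nat.Prime 5) := ⟨by norm_num⟩
  not_dvd_swap (by norm_num) (nth fiveWords 0) (nth fiveWords 1) (nth fiveWords 2) 161215488
    (by decide +kernel) (by decide +kernel) (by decide +kernel) (by norm_num) hσ

theorem not_seven_dvd {Γ : Type} [Group Γ] [Finite Γ] {σ : Γ →* Cfsg.Spor.He}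
    (hσ : Cfsg.IsStemExtension σ) : ¬ 7 ∣ Nat.card σ.ker :=
  haveI : Fact (Nat.Prime 7) := ⟨by norm_num⟩
  not_dvd_scale 2 4 1 (nth sevenWords 0) (nth sevenWords 1) (nth sevenWords 2) 11750400
    (by decide +kernel) (by decide +kernel) (by decide +kernel) (by norm_num) (by norm_num)
    (by norm_num) hσ

end CfsgLib.HeMult
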