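import Cfsg.Agent.HeMult.Two
import Cfsg.Agent.HeMult.Odd
import Cfsg.Agent.Eq.Def_KGroupFacts

/-!
The Schur multiplier of the Held group is trivial.
-/

set_option autoImplicit false

namespace CfsgLib.HeMult

open CfsgLib.CosetEnum CfsgLib.CosetEnum.He

theorem not_dvd_large {p : ℕ} (hp : p.Prime) (h2 : p ≠ 2) (h3 : p ≠ 3) (h5 : p ≠ 5)
    (h7 : p ≠ 7) : ¬ p ^ 2 ∣ 4030387200 := by
  intro hd
  have hc : (p ^ 2).Coprime (2 ^ 10 * (3 ^ 3 * (5 ^ 2 * 7 ^ 3))) :=
    Nat.Coprime.pow_left _ <|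
      (((Nat.coprime_primes hp Nat.prime_two).2 h2).pow_right _).mul_right <|
      (((Nat.coprime_primes hp Nat.prime_three).2 h3).pow_right _).mul_right <|
      (((Nat.coprime_primes hp (by norm_num)).2 h5).pow_right _).mul_right <|
      ((Nat.coprime_primes hp (by norm_num)).2 h7).pow_right _
  rw [show 4030387200 = 2 ^ 10 * (3 ^ 3 * (5 ^ 2 * 7 ^ 3)) * 17 by norm_num] at hd
  have hd' : p ^ 2 ∣ 17 := hc.dvd_of_dvd_mul_left hd
  have hle := Nat.le_of_dvd (by norm_num) hd'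
  have := hp.two_le
  have hlt : p < 5 := by nlinarith
  interval_cases p <;> omega

theorem he_trivial : Cfsg.HasCyclicSchurMultiplier Cfsg.Spor.He 1 := by
  haveI := finite_he
  refine Schur.hasCyclicSchurMultiplier_one fun Γ _ _ σ hσ p hp => ?_
  haveI := Fact.mk hp
  by_cases h2 : p = 2
  · subst h2; exact not_two_dvd hσ
  by_cases h3 : p = 3
  · subst h3; exact not_three_dvd hσ
  by_cases h5 : p = 5
  · subst h5; exact not_five_dvd hσ
  by_cases h7 : p = 7
  · subst h7; exact not_seven_dvd hσ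
  by_cases hd : p ∣ Nat.card Cfsg.Spor.He
  · obtain ⟨x, hx⟩ := exists_prime_orderOf_dvd_card' p hd
    refine Schur.not_dvd_card_ker_of_isCyclic hσ (Subgroup.zpowers x) fun hi => ?_
    have h := (Subgroup.zpowers x).card_mul_index
    rw [Nat.card_zpowers, hx, card_he] at h
    refine not_dvd_large hp h2 h3 h5 h7 ?_
    rw [← h, pow_two]
    exact Nat.mul_dvd_mul_left p hi
  · refine Schur.not_dvd_card_ker_of_isCyclic hσ ⊥ ?_
    rwa [Subgroup.index_bot]

end CfsgLib.HeMult
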