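import Cfsg.Agent.HeMult.Base

/-!
Counting the elements of subgroups of the Held group given by words.
-/

set_option autoImplicit false

namespace CfsgLib.HeMult

open CfsgLib.CosetEnum CfsgLib.CosetEnum.He

/-- the elements of a list of words -/
def wordSet (ws : List (List ℕ)) : Set Cfsg.Spor.He := {a | ∃ w ∈ ws, gword g7 w = a}

/-- images of the ordered products of powers below `p` -/
noncomputable def powImgs (p : ℕ) : List (List ℕ) → List (List ℕ)
  | [] => [base]
  | w :: ws => (List.range p).flatMap fun i =>
      (powImgs p ws).map (step (List.replicate i w).flatten)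

/-- images as numbers -/
noncomputable def pack (L : List (List ℕ)) : List ℕ :=
  L.map fun l => l.foldl (fun acc i => 4096 * acc + i) 0

theorem powImgs_mem (p : ℕ) (ws : List (List ℕ)) (hs : ws.all okWord = true)
    {K : Subgroup Cfsg.Spor.He} (hK : ∀ w ∈ ws, gword g7 w ∈ K) :
    ∀ l ∈ powImgs p ws, ∃ x ∈ K, baseImg x = l := by
  induction ws with
  | nil =>
    intro l hl
    exact ⟨1, one_mem _, by rw [List.mem_singleton.1 hl]; exact baseImg_one⟩
  | cons w ws ih =>
    rw [List.all_cons, Bool.and_eq_true] at hs
    intro l hl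
    obtain ⟨i, -, hl⟩ := List.mem_flatMap.1 hl
    obtain ⟨m, hm, rfl⟩ := List.mem_map.1 hl
    obtain ⟨x, hx, rfl⟩ := ih hs.2 (fun v hv => hK v (List.mem_cons_of_mem _ hv)) m hm
    refine ⟨x * gword g7 (List.replicate i w).flatten,
      mul_mem hx (by rw [gword_replicate]; exact pow_mem (hK w List.mem_cons_self) i),
      baseImg_mul_gword x fun y hy => ?_⟩
    obtain ⟨v, hv, hyv⟩ := List.mem_flatten.1 hy
    exact of_okWord hs.1 y (List.eq_of_mem_replicate hv ▸ hyv)

theorem card_ge {K : Subgroup Cfsg.Spor.He} [Finite K] (L : List (List ℕ))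
    (hL : ∀ l ∈ L, ∃ x ∈ K, baseImg x = l) (hn : (pack L).Nodup) : L.length ≤ Nat.card K := by
  choose f hf hfe using fun (j : Fin L.length) => hL L[j] (List.getElem_mem j.2)
  have hinj : Function.Injective fun j : Fin L.length => (⟨f j, hf j⟩ : K) := by
    intro i j hij
    have h : L[(i : ℕ)] = L[(j : ℕ)] := by
      have := congrArg baseImg (congrArg Subtype.val hij)
      simp only at this
      rwa [hfe i, hfe j] at this
    refine Fin.ext ((hn.getElem_inj_iff (hi := by simp [pack]) (hj := by simp [pack])).1 ?_)
    simp only [pack, List.getElem_map, h]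
  simpa using Nat.card_le_card_of_injective _ hinj

/-- the list is closed under some words -/
noncomputable def closedUnder (L ws : List (List ℕ)) : Bool :=
  L.contains base && L.all fun l => ws.all fun w => L.contains (step w l)

theorem card_eq (L gs : List (List ℕ)) (hgs : gs.all okWord = true)
    (hcl : closedUnder L gs = true) (hn : (pack L).Nodup)
    (hL : ∀ l ∈ L, ∃ x ∈ Subgroup.closure (wordSet gs), baseImg x = l) :
    Nat.card (Subgroup.closure (wordSet gs)) = L.length := by
  classical
  have := finite_he
  refine le_antisymm ?_ (card_ge L hL hn)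
  simp only [closedUnder, Bool.and_eq_true, List.all_eq_true, List.contains_iff_mem] at hcl
  have hin : ∀ x ∈ Subgroup.closure (wordSet gs), baseImg x ∈ L := by
    intro x hx
    rw [← Subgroup.mem_toSubmonoid, Subgroup.closure_toSubmonoid_of_finite] at hx
    induction hx using Submonoid.closure_induction_right with
    | one => rw [baseImg_one]; exact hcl.1
    | mul_right x _ y hy ih =>
      obtain ⟨w, hw, rfl⟩ := hy
      rw [baseImg_mul_gword x (of_okWord (List.all_eq_true.1 hgs w hw))]
      exact hcl.2 _ ih w hw
  refine le_trans ?_ (List.toFinset_card_le L)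
  rw [← Nat.card_coe_set_eq (L.toFinset : Set (List ℕ)) |>.trans (Set.ncard_coe_finset _)]
  exact Nat.card_le_card_of_injective
    (fun x => ⟨baseImg x.1, List.mem_toFinset.2 (hin x.1 x.2)⟩)
    fun x y h => Subtype.ext (baseImg_injective (congrArg Subtype.val h))

end CfsgLib.HeMult
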