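import Cfsg.Agent.HeMult.Span
import Cfsg.Agent.HeMult.Data

/-!
The 2-part of the Schur multiplier of the Held group.
-/

set_option autoImplicit false
set_option maxRecDepth 100000

namespace CfsgLib.HeMult

open CfsgLib.CosetEnum CfsgLib.CosetEnum.He

attribute [local irreducible] twoWords cert

/-- a letter of the certificate in the group -/
noncomputable def gTwo (k : ℕ) : Cfsg.Spor.He := gword g7 (twoWords.getD k [])

/-- a word of the certificate spelled out -/
def spell (w : List ℕ) : List ℕ := w.flatMap fun k => twoWords.getD k []

theorem evalW_gTwo (w : List ℕ) : Schur.TwoCert.evalW gTwo w = gword g7 (spell w) := by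
  induction w with
  | nil => rfl
  | cons k w ih =>
    rw [Schur.TwoCert.evalW_cons, ih]
    simp only [spell, List.flatMap_cons, gword_append', gTwo]

/-- the relations of the certificate on the table -/
noncomputable def relsTwo : Bool :=
  (List.range cert.rules.length).all fun r =>
    okWord (spell (cert.rules.getD r ([], [])).1) && okWord (spell (cert.rules.getD r ([], [])).2) &&
      (step (spell (cert.rules.getD r ([], [])).1) base ==
        step (spell (cert.rules.getD r ([], [])).2) base)

theorem relsTwo_ok : relsTwo = true := by decide +kernel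

theorem gTwo_rel : ∀ r < cert.rules.length,
    Schur.TwoCert.evalW gTwo (cert.rules.getD r ([], [])).1 =
      Schur.TwoCert.evalW gTwo (cert.rules.getD r ([], [])).2 := by
  intro r hr
  rw [evalW_gTwo, evalW_gTwo]
  exact gword_eq_of_step (List.all_eq_true.1 relsTwo_ok r (List.mem_range.2 hr))

theorem cert_ok : Schur.TwoCert.ok cert = true := by decide +kernel

/-- words of the generators of the Sylow 2-subgroup -/
def twoGens : List (List ℕ) := twoWords.take 10

theorem cert_n : cert.n = 10 := by decide +kernel

theorem closure_two : Subgroup.closure (gTwo '' {i | i < cert.n}) =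
    Subgroup.closure (wordSet twoGens) := by
  have hlen : twoWords.length = 12 := by decide +kernel
  rw [cert_n]
  congr 1
  ext x
  constructor
  · rintro ⟨k, hk, rfl⟩
    have hk' : k < 10 := hk
    refine ⟨twoWords.getD k [], List.mem_iff_getElem.2 ⟨k, ?_, ?_⟩, rfl⟩
    · rw [twoGens, List.length_take, hlen]; omega
    · simp only [twoGens, List.getElem_take]
      rw [List.getD_eq_getElem _ _ (by omega)]
  · rintro ⟨w, hw, rfl⟩
    obtain ⟨k, hk, rfl⟩ := List.getElem_of_mem hw
    have hk' : k < 10 := by rw [twoGens, List.length_take] at hk; omega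
    refine ⟨k, hk', ?_⟩
    simp only [gTwo, twoGens, List.getElem_take]
    rw [List.getD_eq_getElem _ _ (by omega)]

theorem two_small : twoGens.all okWord = true := by decide +kernel
theorem two_nodup : (pack (powImgs 2 twoGens)).Nodup := by decide +kernel
theorem two_length : (powImgs 2 twoGens).length = 1024 := by decide +kernel

theorem card_two : Nat.card (Subgroup.closure (gTwo '' {i | i < cert.n})) = 2 ^ cert.n := by
  have := finite_he
  refine le_antisymm ?_ ?_
  · have hok := cert_ok
    simp only [Schur.TwoCert.ok, Bool.and_eq_true, beq_iff_eq, decide_eq_true_eq] at hok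
    obtain ⟨⟨⟨-, hlen⟩, hsh⟩, -⟩ := hok
    have h := Schur.TwoCert.ncard_closure_le hsh gTwo
      (fun r hr => gTwo_rel r (by omega)) cert.n le_rfl
    exact (Nat.card_coe_set_eq _).le.trans h
  · rw [closure_two, cert_n]
    refine le_trans ?_ (card_ge _ (powImgs_mem 2 twoGens two_small
      fun w hw => Subgroup.subset_closure ⟨w, hw, rfl⟩) two_nodup)
    rw [two_length]
    norm_num

theorem not_two_dvd {Γ : Type} [Group Γ] [Finite Γ] {σ : Γ →* Cfsg.Spor.He}
    (hσ : Cfsg.IsStemExtension σ) : ¬ 2 ∣ Nat.card σ.ker := by
  refine Schur.TwoCert.not_two_dvd_card_ker hσ cert_ok gTwo gTwo_rel card_two ?_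
  have h := (Subgroup.closure (gTwo '' {i | i < cert.n})).card_mul_index
  rw [card_two, card_he] at h
  rw [cert_n] at h ⊢
  norm_num at h
  intro hd
  omega

end CfsgLib.HeMult
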